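import Cfsg.Agent.H2.FTCop
import Cfsg.Agent.H1.BGCop
import Cfsg.Agent.H18.Rank

/-! Coprime action of an elementary abelian group of rank 3: generating families of fixed point subgroups (`GenFam`),
the index bound `GenFam.relIndex_le`, `GenFam.relIndex_dvd`, `card_le_of_center_index` (order of a group from the index of
its centre and its generators) and `card_der_le` (the derived subgroup has bounded order). -/

set_option autoImplicit false
set_option linter.unusedSectionVars false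

namespace H1
open Subgroup Cfsg H18
open scoped commutatorElement
universe u

variable {G : Type*} [Group G] [Finite G] {A D E H K P U W : Subgroup G} {ι : Type*} [Fintype ι]
  {Y : ι → Subgroup G} {p q m M : ℕ} {x y : G}

/-- every `A`-invariant subgroup of `K` is generated by its intersections with the `Y i` -/
structure GenFam (A K : Subgroup G) (Y : ι → Subgroup G) : Prop where
  norm : ∀ i, A ≤ N(Y i)
  gen : ∀ H ≤ K, A ≤ N(H) → ∀ U, (∀ i, H ⊓ Y i ≤ U) → H ≤ U

theorem GenFam.relIndex_le (h : GenFam A K Y) (n : ℕ) : ∀ P W : Subgroup G, W.relIndex P = n → P ≤ K → Solv P → A ≤ N(P) →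
    W ⊴ P → A ≤ N(W) → W.relIndex P ≤ ∏ i, W.relIndex (P ⊓ Y i) := by
  induction n using Nat.strong_induction_on with
  | _ n ih =>
  intro P W hn hP hs nP hW nW
  have pos : ∀ X Z : Subgroup G, 0 < X.relIndex Z := fun X Z => Nat.pos_of_ne_zero (relIndex_ne_zero _ _)
  have step : ∀ U, W ≤ U → U ⊴ P → A ≤ N(U) → U ≠ W → U ≠ P → W.relIndex P ≤ ∏ i, W.relIndex (P ⊓ Y i) := by
    intro U h1 h2 h3 h4 h5
    have e := relIndex_mul_relIndex W U P h1 h2.le
    have a1 : 1 < W.relIndex U := one_lt_relIndex fun c => h4 (le_antisymm c h1)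
    have a2 : 1 < U.relIndex P := one_lt_relIndex fun c => h5 (le_antisymm h2.le c)
    have b1 := ih _ (by rw [← hn, ← e]; nlinarith) U W rfl (h2.le.trans hP) (hs.of_le h2.le) h3
      ⟨h1, h2.le.trans hW.norm⟩ nW
    have b2 := ih _ (by rw [← hn, ← e]; nlinarith) P U rfl hP hs nP h2 h3
    rw [← e]
    refine (Nat.mul_le_mul b1 b2).trans (le_of_eq ?_)
    rw [← Finset.prod_mul_distrib]
    refine Finset.prod_congr rfl fun i _ => ?_
    have := relIndex_inf_mul_relIndex W U (P ⊓ Y i)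
    rwa [← inf_assoc, inf_eq_left.2 h2.le, inf_eq_left.2 h1] at this
  by_cases e : W = P
  · rw [e, relIndex_self]; exact Finset.one_le_prod' fun i _ => pos _ _
  by_cases hd : ⁅P, P⁆ ≤ W
  · obtain ⟨i, hi⟩ : ∃ i, ¬ P ⊓ Y i ≤ W := by
      by_contra c; push Not at c; exact e (le_antisymm hW.le (h.gen P hP nP W c))
    by_cases e2 : (P ⊓ Y i) ⊔ W = P
    · have := relIndex_sup_of_norm (A := P ⊓ Y i) (B := W) (inf_le_left.trans hW.norm)
      rw [e2] at this
      rw [this]
      exact Finset.single_le_prod' (f := fun i => W.relIndex (P ⊓ Y i)) (fun i _ => pos _ _) (Finset.mem_univ i)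
    · exact step _ le_sup_right (nml_of_der_le (hd.trans le_sup_right) (sup_le inf_le_left hW.le))
        (norm_sup (norm_inf nP (h.norm i)) nW) (fun c => hi (c ▸ le_sup_left)) e2
  · refine step (W ⊔ ⁅P, P⁆) le_sup_left (nml_of_der_le le_sup_right (sup_le hW.le der_le))
      (norm_sup nW (norm_der nP)) (fun c => hd (c ▸ le_sup_right)) fun c => e ?_
    have h1 : Solv (P ⫽ W) := hs.mim
    by_contra c2
    have h2 := h1.der_lt (fun z => c2 (le_antisymm hW.le ((quo_eq_bot_iff hW.norm).1 z)))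
    rw [← mim_comm hW.norm hW.norm] at h2
    refine h2.not_ge ?_
    rw [quo_le_quo_iff hW.norm (der_le.trans hW.norm), sup_comm, c]

theorem GenFam.relIndex_dvd (h : GenFam A K Y) (hc : Cop A K) (nK : K ≤ N(W)) (nW : A ≤ N(W))
    (hM : ∀ i, W.relIndex (K ⊓ Y i) ≤ M) : W.relIndex K ∣ (M ^ Fintype.card ι).factorial := by
  rw [Nat.dvd_iff_prime_pow_dvd_dvd]
  intro p k hp hk
  obtain ⟨P, hP, nP⟩ := hc.exists_sylow hp
  have h1 : p ^ k ∣ W.relIndex P := by
    rw [← card_quo nK] at hk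
    rw [← card_quo (hP.le.trans nK)]
    exact (hP.mim nK).dvd_of_piNat (((piNat_prime (π := {p}) hp).2 rfl).pow k) hk
  have h2 := h.relIndex_le _ P (W ⊓ P) rfl hP.le hP.pi.solv nP ⟨inf_le_right, norm_inf (hP.le.trans nK) le_N⟩
    (norm_inf nW nP)
  rw [inf_relIndex_right] at h2
  refine Nat.dvd_factorial (Nat.pos_of_ne_zero (pow_ne_zero _ hp.ne_zero))
    ((Nat.le_of_dvd (Nat.pos_of_ne_zero (relIndex_ne_zero _ _)) h1).trans (h2.trans ?_))
  rw [← Finset.card_univ, ← Finset.prod_const]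
  refine Finset.prod_le_prod' fun i _ => le_trans ?_ (hM i)
  rw [← inf_relIndex_right, inf_assoc, ← inf_assoc P, inf_idem, inf_relIndex_right]
  exact relIndex_le_of_le_right (inf_le_inf_right _ hP.le) (relIndex_ne_zero _ _)

theorem ncard_conj' (O : Subgroup G) (x : G) :
    {z | ∃ o ∈ O, o * x * o⁻¹ = z}.ncard = C1(x).relIndex O := by
  let : MulAction G G := MulAction.compHom G (MulAut.conj (G := G))
  have h := MulAction.index_stabilizer O x
  have e : MulAction.stabilizer O x = C1(x).subgroupOf O := by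
    ext g; rw [mem_subgroupOf, mem_C1]; exact mul_inv_eq_iff_eq_mul
  rw [relIndex, ← e, h]
  congr 1
  ext z
  exact ⟨fun ⟨o, ho, e⟩ => ⟨⟨o, ho⟩, e⟩, fun ⟨o, e⟩ => ⟨o, o.2, e⟩⟩

theorem idx_C1_le (h : ∀ y ∈ H, ⁅y, x⁆ ∈ E) : C1(x).relIndex H ≤ Nat.card E := by
  rw [← ncard_conj', ← Nat.card_coe_set_eq]
  refine Nat.card_le_card_of_injective (fun z => (⟨z.1 * x⁻¹, by
    obtain ⟨z, o, ho, rfl⟩ := z; exact h o ho⟩ : E)) fun z w e => Subtype.ext ?_
  simpa using e

/-- a group whose centre has index `≤ n`, generated by `≤ r` elements of order `≤ e` -/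
theorem card_le_of_center_index {D : Type*} [Group D] [Finite D] {n r e : ℕ} (S : Finset D) (hS : closure (S : Set D) = ⊤)
    (hr : S.card ≤ r) (he : ∀ s ∈ S, orderOf s ≤ e) (hn : (center D).index ≤ n) :
    Nat.card D ≤ n * (n.factorial * e.factorial) ^ (n * r) := by
  have hx : ∀ g : D, g ^ ((center D).index * e.factorial) = 1 := by
    intro g
    have hg : g ∈ closure (S : Set D) := hS ▸ mem_top g
    have key : (MonoidHom.transferCenterPow D g) ^ e.factorial = 1 := by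
      induction hg using closure_induction with
      | mem s hs =>
        rw [← map_pow, orderOf_dvd_iff_pow_eq_one.1 (Nat.dvd_factorial (orderOf_pos s) (he s hs)), map_one]
      | one => simp
      | mul a b _ _ ha hb => rw [map_mul, Commute.mul_pow (Subtype.ext (mem_center_iff.1 (Subtype.property _) _)), ha, hb, one_mul]
      | inv a _ ha => rw [map_inv, inv_pow, ha, inv_one]
    have := congrArg Subtype.val key
    rwa [Subgroup.coe_pow, MonoidHom.transferCenterPow_apply, ← pow_mul] at this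
  have h1 : Nat.card (center D) ∣ ((center D).index * e.factorial) ^ Group.rank (center D) := by
    let _ : CommGroup (center D) := { (inferInstance : Group (center D)) with
      mul_comm := fun a b => Subtype.ext (mem_center_iff.1 b.2 a) }
    exact card_dvd_exponent_pow_rank' (center D) fun g => Subtype.ext (hx g)
  have h2 : Group.rank (center D) ≤ n * r :=
    (rank_le_index_mul_rank _).trans (Nat.mul_le_mul hn ((Group.rank_le hS).trans hr))
  have i0 : 0 < (center D).index := Nat.pos_of_ne_zero index_ne_zero_of_finite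
  rw [← (center D).index_mul_card]
  refine Nat.mul_le_mul hn ((Nat.le_of_dvd (by positivity) h1).trans ?_)
  exact (Nat.pow_le_pow_left (Nat.mul_le_mul_right _ (hn.trans (Nat.self_le_factorial n))) _).trans
    (Nat.pow_le_pow_right (by positivity) h2)

/-- independent pairs in `A` -/
abbrev IP (A : Subgroup G) := {z : A × A // (z.1 : G) ≠ 1 ∧ (z.2 : G) ∉ zpowers (z.1 : G)}
/-- the common centralizer of an independent pair -/
abbrev ipY (A : Subgroup G) (i : IP A) : Subgroup G := C1((i.1.1 : G)) ⊓ C1((i.1.2 : G))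

theorem fam_ip (hq : q.Prime) (hA : Elem q A) (cA : Nat.card A = q ^ 3) (hc : Cop A K) : GenFam A K (ipY A) := by
  have c1 : ∀ a ∈ A, A ≤ C1(a) := fun a ha b hb => mem_C1.2 (comm_of_cent hA.abel hb ha)
  refine ⟨fun i => norm_inf ((c1 _ i.1.1.2).trans le_N) ((c1 _ i.1.2.2).trans le_N), fun H hH nH U hU => ?_⟩
  have hc' := hc.sub hH nH
  refine H2.le_of_cent1 hA.abel (PElem.not_cyc ⟨le_rfl, hA, cA⟩ hq (by norm_num)) nH hc'.cop fun a ha a1 => ?_
  have hZ : zpowers a ⊴ A := ⟨zpowers_le.2 ha, cent_norm (C_zpowers (x := a) ▸ c1 a ha)⟩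
  refine H2.le_of_cent1_quo hZ (abel_iff_der.1 hA.abel ▸ bot_le) (PElem.not_cyc (n := 2) ⟨le_rfl, hA.mim, ?_⟩ hq le_rfl)
    (norm_inf nH ((c1 a ha).trans le_N)) (C_zpowers (x := a) ▸ inf_le_right) (coprime_mono hc'.cop le_rfl inf_le_left)
    fun b hb b1 => le_trans (inf_assoc ..).le (hU ⟨(⟨a, ha⟩, ⟨b, hb⟩), a1, b1⟩)
  have := card_quo_mul hZ
  rw [hA.card_zpowers hq ha a1, cA, pow_succ'] at this
  exact Nat.eq_of_mul_eq_mul_left hq.pos this

theorem common_ip (hq : q.Prime) (hA : Elem q A) (cA : Nat.card A = q ^ 3) (i j : IP A) :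
    ∃ e ∈ A, e ≠ 1 ∧ ipY A i ≤ C1(e) ∧ ipY A j ≤ C1(e) := by
  have key : ∀ i : IP A, ∃ B ≤ A, q ^ 2 ≤ Nat.card B ∧ ipY A i ≤ C(B) := by
    rintro ⟨⟨⟨a, ha⟩, ⟨b, hb⟩⟩, a1, b1⟩
    have b0 : b ≠ 1 := fun e => b1 (show b ∈ zpowers a from e.symm ▸ one_mem (zpowers a))
    refine ⟨zpowers a ⊔ zpowers b, sup_le (zpowers_le.2 ha) (zpowers_le.2 hb), ?_, by
      rw [C_sup, C_zpowers, C_zpowers]⟩
    rw [card_sup_of_cent (cent_mono hA.abel (zpowers_le.2 ha) (zpowers_le.2 hb)) ?_, hA.card_zpowers hq ha a1,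
      hA.card_zpowers hq hb b0, pow_two]
    rcases eq_bot_or_eq_of_prime (hA.card_zpowers hq hb b0 ▸ hq) (inf_le_right (a := zpowers a)) with h | h
    · exact h
    · exact absurd (inf_eq_right.1 h (mem_zpowers b)) b1
  obtain ⟨B, h1, h2, h3⟩ := key i
  obtain ⟨B', h4, h5, h6⟩ := key j
  have : B ⊓ B' ≠ ⊥ := fun c => by
    have := card_le_of_le (sup_le h1 h4)
    rw [card_sup_of_cent (cent_mono hA.abel h1 h4) c, cA] at this
    have h7 := (Nat.mul_le_mul h2 h5).trans this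
    rw [← pow_add] at h7
    exact absurd ((Nat.pow_le_pow_iff_right hq.one_lt).1 h7) (by norm_num)
  obtain ⟨e, he, e1⟩ := exists_mem_ne_one' this
  exact ⟨e, h1 he.1, e1, fun y hy => mem_C1.2 (mem_C.1 (h3 hy) e he.1).symm,
    fun y hy => mem_C1.2 (mem_C.1 (h6 hy) e he.2).symm⟩

/-- the bound -/
def derBound (q m : ℕ) : ℕ :=
  let r := q ^ 3 * m
  let n := ((m ^ r) ^ (q ^ 6)).factorial
  n * (n.factorial * m.factorial) ^ (n * r)

theorem card_der_le (hq : q.Prime) (hA : Elem q A) (cA : Nat.card A = q ^ 3) (hc : Cop A K)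
    (hm : ∀ a ∈ A, a ≠ 1 → Nat.card (⁅K ⊓ C1(a), K ⊓ C1(a)⁆ : Subgroup G) ≤ m) :
    Nat.card (⁅K, K⁆ : Subgroup G) ≤ derBound q m := by
  classical
  have := Fintype.ofFinite (IP A)
  have := Fintype.ofFinite G
  have hF := fam_ip hq hA cA hc
  have c1 : ∀ a ∈ A, A ≤ N(C1(a)) := fun a ha b hb => le_N (mem_C1.2 (comm_of_cent hA.abel hb ha))
  set Da : G → Subgroup G := fun a => ⁅K ⊓ C1(a), K ⊓ C1(a)⁆ with hDa
  have DK : ∀ a, Da a ≤ K := fun a => der_le.trans inf_le_left
  have DN : ∀ a ∈ A, A ≤ N(Da a) := fun a ha => norm_der (norm_inf hc.norm (c1 a ha))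
  -- generators
  set X : Finset G := Finset.univ.filter fun x => (∃ a ∈ A, a ≠ 1 ∧ x ∈ Da a) ∧ ∃ i, x ∈ ipY A i with hX
  set D : Subgroup G := closure (X : Set G) with hD
  have mX : ∀ x, x ∈ X ↔ (∃ a ∈ A, a ≠ 1 ∧ x ∈ Da a) ∧ ∃ i, x ∈ ipY A i := fun x => by simp [hX]
  have XK : ∀ x ∈ X, x ∈ K := fun x hx => by obtain ⟨⟨a, -, -, h⟩, -⟩ := (mX x).1 hx; exact DK a h
  have DaD : ∀ a ∈ A, a ≠ 1 → Da a ≤ D := fun a ha a1 => hF.gen _ (DK a) (DN a ha) _ fun i x hx =>
    subset_closure ((mX x).2 ⟨⟨a, ha, a1, hx.1⟩, i, hx.2⟩)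
  have cm : ∀ i j, ∃ e ∈ A, e ≠ 1 ∧ ∀ x ∈ K ⊓ ipY A i, ∀ y ∈ K ⊓ ipY A j, ⁅x, y⁆ ∈ Da e := fun i j => by
    obtain ⟨e, h1, h2, h3, h4⟩ := common_ip hq hA cA i j
    exact ⟨e, h1, h2, fun x hx y hy => commutator_mem_commutator ⟨hx.1, h3 hx.2⟩ ⟨hy.1, h4 hy.2⟩⟩
  have cD : ∀ i j, ⁅K ⊓ ipY A i, K ⊓ ipY A j⁆ ≤ D := fun i j => by
    obtain ⟨e, h1, h2, h3⟩ := cm i j
    exact commutator_le.2 fun x hx y hy => DaD e h1 h2 (h3 x hx y hy)
  have nD : K ≤ N(D) := hF.gen _ le_rfl hc.norm _ fun j y hy => mem_N_of_finite fun d hd => by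
    have : D ≤ cj y⁻¹ D := (closure_le _).2 fun x hx => by
      obtain ⟨-, i, hi⟩ := (mX x).1 hx
      have h1 := cD j i (commutator_mem_commutator hy ⟨XK x hx, hi⟩)
      have := D.mul_mem h1 (subset_closure hx)
      rw [SetLike.mem_coe, mem_cj, inv_inv]
      simpa [commutatorElement_def] using this
    simpa [mem_cj] using this hd
  have aD : A ≤ N(D) := norm_iff.2 fun a ha d hd => by
    have : D ≤ cj a⁻¹ D := (closure_le _).2 fun x hx => by
      obtain ⟨⟨b, hb, b1, h⟩, -⟩ := (mX x).1 hx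
      rw [SetLike.mem_coe, mem_cj, inv_inv]
      exact DaD b hb b1 (conj_mem (DN b hb) ha h)
    simpa [mem_cj] using this hd
  have dD : ⁅K, K⁆ ≤ D := by
    have s1 : ∀ j, ⁅K, K ⊓ ipY A j⁆ ≤ D := fun j => by
      rw [comm_le_iff_quo nD (inf_le_left.trans nD), mim_le_iff nD]
      refine hF.gen _ le_rfl hc.norm _ fun i => ?_
      rw [← mim_le_iff (inf_le_left.trans nD), ← comm_le_iff_quo (inf_le_left.trans nD) (inf_le_left.trans nD)]
      exact cD i j
    rw [comm_le_iff_quo nD nD, mim_le_iff nD]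
    refine hF.gen _ le_rfl hc.norm _ fun i => ?_
    rw [← mim_le_iff (inf_le_left.trans nD), ← comm_le_iff_quo (inf_le_left.trans nD) nD, commutator_comm]
    exact s1 i
  obtain ⟨a0, ha0, a01⟩ := exists_mem_ne_one' (H := A) fun c => by
    rw [c, card_bot] at cA; exact absurd cA.symm (Nat.one_lt_pow (by norm_num) hq.one_lt).ne'
  have m0 : 1 ≤ m := le_trans card_pos' (hm a0 ha0 a01)
  have cX : X.card ≤ q ^ 3 * m := by
    have h1 : X ⊆ (Finset.univ.filter fun a => a ∈ A ∧ a ≠ 1).biUnion fun a => Finset.univ.filter (· ∈ Da a) := by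
      intro x hx
      obtain ⟨⟨a, h1, h2, h3⟩, -⟩ := (mX x).1 hx
      simp only [Finset.mem_biUnion, Finset.mem_filter, Finset.mem_univ, true_and]
      exact ⟨a, ⟨h1, h2⟩, h3⟩
    refine (Finset.card_le_card h1).trans ((Finset.card_biUnion_le_card_mul _ _ m fun a ha => ?_).trans
      (Nat.mul_le_mul_right _ ?_))
    · have := hm a (Finset.mem_filter.1 ha).2.1 (Finset.mem_filter.1 ha).2.2
      rwa [Nat.card_eq_fintype_card, Fintype.card_subtype] at this
    · rw [← cA, Nat.card_eq_fintype_card, Fintype.card_subtype]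
      exact Finset.card_le_card fun a ha => by simp at ha ⊢; exact ha.1
  have cI : Fintype.card (IP A) ≤ q ^ 6 := by
    refine (Fintype.card_subtype_le _).trans (le_of_eq ?_)
    rw [Fintype.card_prod, ← Nat.card_eq_fintype_card, cA, ← pow_add]
  have eC : C(D) = ⨅ x : X, C1((x : G)) := by
    ext g
    rw [hD, centralizer_closure, mem_iInf]
    exact ⟨fun h x => mem_C1.2 (h x x.2).symm, fun h x hx => (mem_C1.1 (h ⟨x, hx⟩)).symm⟩
  have h1 : C(D).relIndex K ∣ ((m ^ (q ^ 3 * m)) ^ Fintype.card (IP A)).factorial := by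
    refine hF.relIndex_dvd hc (norm_C nD) (norm_C aD) fun j => ?_
    rw [eC]
    refine (relIndex_iInf_le _).trans (le_trans (Finset.prod_le_pow_card _ _ m fun x _ => ?_) ?_)
    · obtain ⟨-, i, hi⟩ := (mX x).1 x.2
      obtain ⟨e, h1, h2, h3⟩ := cm j i
      exact (idx_C1_le fun y hy => h3 y hy x ⟨XK x x.2, hi⟩).trans (hm e h1 h2)
    · rw [Finset.card_univ, Fintype.card_coe]; exact Nat.pow_le_pow_right m0 cX
  have DK' : D ≤ K := (closure_le _).2 XK
  refine (card_le_of_le dD).trans (card_le_of_center_index (X.subtype (· ∈ D)) ?_ ?_ ?_ ?_)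
  · refine map_injective D.subtype_injective ?_
    rw [MonoidHom.map_closure, ← MonoidHom.range_eq_map, range_subtype]
    conv_rhs => rw [hD]
    congr 1
    ext x
    simp only [Set.mem_image, Finset.mem_coe, Finset.mem_subtype]
    exact ⟨fun ⟨y, h, e⟩ => e ▸ h, fun h => ⟨⟨x, subset_closure h⟩, h, rfl⟩⟩
  · rw [Finset.card_subtype]; exact (Finset.card_filter_le _ _).trans cX
  · intro s hs
    obtain ⟨⟨a, h1, h2, h3⟩, -⟩ := (mX s).1 (Finset.mem_subtype.1 hs)
    rw [← Subgroup.orderOf_coe]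
    exact (Nat.le_of_dvd card_pos' (Subgroup.orderOf_dvd_natCard _ h3)).trans (hm a h1 h2)
  · have e : center D = C(D).subgroupOf D := by
      ext g; rw [mem_center_iff, mem_subgroupOf, mem_C]
      exact ⟨fun h d hd => congrArg Subtype.val (h ⟨d, hd⟩), fun h d => Subtype.ext (h d d.2)⟩
    rw [e]
    refine (relIndex_le_of_le_right DK' (relIndex_ne_zero _ _)).trans ((Nat.le_of_dvd (Nat.factorial_pos _) h1).trans
      (Nat.factorial_le (Nat.pow_le_pow_right (by positivity) cI)))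

end H1
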